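import Cfsg.Agent.Classical.Symp.Unipotent
import Cfsg.Agent.Fus.Group
import Cfsg.Agent.Fus.Centric
import Cfsg.Agent.Fus.Saturation
import Cfsg.Agent.Fus.NormalOverSylow
import Mathlib.FieldTheory.Finite.Basic

/-!
The fusion system at the defining characteristic of a quotient of `Sp_2m(K)` by a central subgroup
(`m ≥ 2`, excluding `Sp_4(2)`) is simple.
-/

set_option autoImplicit false

namespace CfsgLib.Classical.Symp.FusionSimple

open Matrix Cfsg Cfsg.FusionSystem CfsgLib.Fus CfsgLib.Classical.Symp.Unipotent

variable {m : ℕ} {K : Type*} [Field K] [Fintype K] [DecidableEq K]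

local notation "I2" => Fin m ⊕ Fin m
local notation "SpK" => Matrix.symplecticGroup (Fin m) K
local notation "MatK" => Matrix (Fin m ⊕ Fin m) (Fin m ⊕ Fin m) K
local notation "tr[" hkl ", " a "]" => leviSL (Matrix.SpecialLinearGroup.transvection hkl a)

/-- Height function of the minimal parabolic at the `i`th short simple root. -/
def shortF (i : Fin m) : I2 → ℕ := fun a =>
  if pos a = (i : ℕ) + 1 then i else if pos a = 2 * m - 1 - (i : ℕ) then 2 * m - 2 - i else pos a

/-- Height function of the minimal parabolic at the long simple root. -/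
def longF : I2 → ℕ := fun a => if pos a = m then m - 1 else pos a

theorem rad_le_uni {f : I2 → ℕ} (hf : ∀ a b, pos b ≤ pos a → f b ≤ f a) :
    (rad f : Subgroup SpK) ≤ uni := fun g hg a b hab => hg a b (hf a b hab)

theorem uni_le_par {f : I2 → ℕ} (hf : ∀ a b, pos b ≤ pos a → f b ≤ f a) :
    (uni : Subgroup SpK) ≤ par f := fun g hg a b hab => by
  have h : pos b < pos a := by
    by_contra h'
    exact absurd (hf b a (not_lt.1 h')) (not_le.2 hab)
  rw [hg a b h.le, Matrix.one_apply_ne]
  rintro rfl
  exact lt_irrefl _ h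

theorem shortF_mono (i : Fin m) (hi : (i : ℕ) + 1 < m) (a b : I2) (h : pos b ≤ pos a) :
    shortF i b ≤ shortF i a := by
  unfold shortF; split_ifs <;> omega

theorem longF_mono (a b : I2) (h : pos b ≤ pos a) : longF b ≤ longF a := by
  unfold longF; split_ifs <;> omega

theorem symE_mem_rad_short (i : Fin m) (hi : (i : ℕ) + 1 < m) (S : Matrix (Fin m) (Fin m) K) (hS : S.IsSymm) :
    symE S hS ∈ (rad (shortF i) : Subgroup SpK) := by
  intro a b hab
  simp only [ent, coe_symE]
  rcases a with a | a <;> rcases b with b | b <;> simp [Matrix.one_apply]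
  exfalso
  unfold shortF at hab
  simp only [pos_inl, pos_inr] at hab
  grind

theorem short_centric (i j : Fin m) (hij : (j : ℕ) = i + 1) {u : SpK} (hu : u ∈ uni)
    (hc : ∀ r ∈ (rad (shortF i) : Subgroup SpK), u * r = r * u) : u ∈ rad (shortF i) := by
  have hi : (i : ℕ) + 1 < m := by omega
  obtain ⟨A, S, hS, hA1, hA2, rfl⟩ := exists_levi_symE hu
  have hA : A = 1 := by
    refine Subtype.ext (Matrix.ext fun a k => ?_)
    have h := congrArg (fun g : SpK => ent g (Sum.inl a) (Sum.inr k))
      (hc _ (symE_mem_rad_short i hi _ (isSymm_symSingle k k (1 : K))))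
    simp only [ent, Submonoid.coe_mul, coe_leviSL, coe_symE, fromBlocks_multiply,
      fromBlocks_apply₁₂] at h
    simp only [Matrix.mul_one, Matrix.one_mul, Matrix.mul_zero, Matrix.zero_mul, add_zero, zero_add] at h
    rw [Matrix.SpecialLinearGroup.coe_one]
    have e : ∀ M : Matrix (Fin m) (Fin m) K, ∀ x y, (M * symSingle k k (1 : K)) x y = if y = k then M x k else 0 := by
      intro M x y
      rw [Matrix.mul_apply]
      by_cases hy : y = k
      · subst hy; simp [symSingle]
      · simp [symSingle, hy]
    have e' : ∀ M : Matrix (Fin m) (Fin m) K, ∀ x y, (symSingle k k (1 : K) * M) x y = if x = k then M k y else 0 := by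
      intro M x y
      rw [Matrix.mul_apply]
      by_cases hx : x = k
      · subst hx; simp [symSingle]
      · simp [symSingle, hx]
    simp only [Matrix.add_apply, e, e', if_true, Matrix.transpose_apply] at h
    have hAinv : ((A⁻¹ : Matrix.SpecialLinearGroup (Fin m) K) : Matrix (Fin m) (Fin m) K) k k = 1 := by
      have := CfsgLib.Fus.LinearSimple.uniSL.inv_mem (x := A) ⟨hA1, hA2⟩
      exact this.2 k
    rw [hAinv] at h
    rw [Matrix.one_apply]
    linear_combination h
  subst hA
  rw [map_one, one_mul]
  exact symE_mem_rad_short i hi S hS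

theorem long_centric (k l : Fin m) (hl : (l : ℕ) + 1 = m) (hk : (k : ℕ) + 1 = l) {u : SpK} (hu : u ∈ uni)
    (hc : ∀ r ∈ (rad longF : Subgroup SpK), u * r = r * u) : u ∈ rad longF := by
  have hkl : k < l := by show (k : ℕ) < l; omega
  have hmem : tr[hkl.ne, (1 : K)] ∈ (rad longF : Subgroup SpK) := by
    intro x y hxy
    simp only [ent, coe_leviSL, Matrix.SpecialLinearGroup.transvection_inv]
    rcases x with a | a <;> rcases y with b | b <;>
      simp [CfsgLib.Classical.Linear.transvection_apply, Matrix.one_apply] <;>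
      (try rintro rfl rfl) <;> unfold longF at hxy <;> simp only [pos_inl, pos_inr] at hxy <;>
      grind
  have h := congrArg (fun g : SpK => ent g (Sum.inl k) (Sum.inr l)) (hc _ hmem)
  have h21 : ∀ a b, ent u (Sum.inr a) (Sum.inl b) = 0 := fun a b => by
    rw [hu _ _ (by simp; omega), Matrix.one_apply_ne (by simp)]
  simp only [ent_mul, Fintype.sum_sum_type] at h
  simp [ent, coe_leviSL, Matrix.SpecialLinearGroup.transvection_inv,
    CfsgLib.Classical.Linear.transvection_apply, Matrix.one_apply, mul_add, add_mul,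
    Finset.sum_add_distrib, hkl.ne'] at h
  intro a b hab
  by_cases hpos : pos b ≤ pos a
  · exact hu a b hpos
  have h1 : pos a = m - 1 ∧ pos b = m := by
    unfold longF at hab; grind
  obtain rfl : a = Sum.inl l := pos_injective (by simp; omega)
  obtain rfl : b = Sum.inr l := pos_injective (by simp; omega)
  rw [Matrix.one_apply_ne (by simp)]
  simpa [ent] using h

theorem tr_mem_par_short (i j : Fin m) (hij : (j : ℕ) = i + 1) (hne : j ≠ i) (a : K) :
    tr[hne, a] ∈ (par (shortF i) : Subgroup SpK) := by
  intro x y hxy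
  simp only [ent, coe_leviSL, Matrix.SpecialLinearGroup.transvection_inv]
  have key : ∀ x y : I2, pos x ≤ pos y → ¬ shortF i y < shortF i x := fun x y h => by
    have := shortF_mono i (by omega) y x h; omega
  rcases x with u | u <;> rcases y with v | v <;>
    simp [CfsgLib.Classical.Linear.transvection_apply, Matrix.one_apply]
  all_goals
    by_cases huv : u = v
    · subst huv; exact absurd hxy (lt_irrefl _)
    simp only [huv, Ne.symm huv, if_false, zero_add]
    rw [ite_eq_right_iff]
    rintro ⟨rfl, rfl⟩
    exfalso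
    unfold shortF at hxy
    simp only [pos_inl, pos_inr] at hxy
    grind

theorem low_mem_par_long (l : Fin m) (hl : (l : ℕ) + 1 = m) (a : K) :
    iota l (CfsgLib.SL2.l a) ∈ (par longF : Subgroup SpK) := by
  intro x y hxy
  simp only [ent, coe_iota, CfsgLib.SL2.coe_l]
  rcases x with u | u <;> rcases y with v | v <;> simp [diagonal_apply, Matrix.one_apply]
  all_goals
    unfold longF at hxy
    simp only [pos_inl, pos_inr] at hxy
    grind

/-- Diagonal elements lie in any subgroup containing the simple coroot tori. -/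
theorem levi_diag_mem {H : Subgroup SpK}
    (hshort : ∀ (i j : Fin m) (hne : i ≠ j), (j : ℕ) = i + 1 → ∀ (a : K) (ha : a ≠ 0),
      leviSL (Matrix.SpecialLinearGroup.diag2n hne a ha) ∈ H)
    (hlong : ∀ (l : Fin m), (l : ℕ) + 1 = m → ∀ a : Kˣ, iota l (CfsgLib.SL2.d a) ∈ H) :
    ∀ (l : Fin m) (a : Kˣ), iota l (CfsgLib.SL2.d a) ∈ H := by
  suffices ∀ (t : ℕ) (l : Fin m), (l : ℕ) + t + 1 = m → ∀ a : Kˣ, iota l (CfsgLib.SL2.d a) ∈ H by
    intro l a
    exact this (m - 1 - l) l (by omega) a
  intro t
  induction t with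
  | zero => intro l hl a; exact hlong l (by omega) a
  | succ t ih =>
    intro l hl a
    obtain ⟨j, hj⟩ : ∃ j : Fin m, (j : ℕ) = l + 1 := ⟨⟨l + 1, by omega⟩, rfl⟩
    have hne : l ≠ j := fun e => by rw [e] at hj; omega
    have e : iota l (CfsgLib.SL2.d a) =
        leviSL (Matrix.SpecialLinearGroup.diag2n hne (a : K) a.ne_zero) * iota j (CfsgLib.SL2.d a) := by
      refine Subtype.ext ?_
      have hinv : ((Matrix.SpecialLinearGroup.diag2n hne (a : K) a.ne_zero)⁻¹ : Matrix.SpecialLinearGroup (Fin m) K) =
          Matrix.SpecialLinearGroup.diag2n hne ((a⁻¹ : Kˣ) : K) (a⁻¹).ne_zero := by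
        rw [inv_eq_iff_mul_eq_one]
        refine Subtype.ext ?_
        rw [Matrix.SpecialLinearGroup.coe_mul, Matrix.SpecialLinearGroup.diag2n_coe,
          Matrix.SpecialLinearGroup.diag2n_coe, diagonal_mul_diagonal, Matrix.SpecialLinearGroup.coe_one,
          ← diagonal_one]
        congr 1
        funext x
        split_ifs <;> simp
      rw [Submonoid.coe_mul, coe_iota, coe_leviSL, coe_iota, hinv, Matrix.SpecialLinearGroup.diag2n_coe,
        Matrix.SpecialLinearGroup.diag2n_coe, diagonal_transpose, fromBlocks_multiply, fromBlocks_inj]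
      simp only [CfsgLib.SL2.coe_d]
      refine ⟨?_, ?_, ?_, ?_⟩ <;> ext x y <;> by_cases hxy : x = y <;> simp [hxy] <;>
        by_cases h1 : y = l <;> by_cases h2 : y = j <;> simp_all
    rw [e]
    exact H.mul_mem (hshort l j hne hj _ _) (ih j (by omega) a)

theorem borel_le {H : Subgroup SpK} (hU : (uni : Subgroup SpK) ≤ H)
    (hd : ∀ (l : Fin m) (a : Kˣ), iota l (CfsgLib.SL2.d a) ∈ H) : (borelSp : Subgroup SpK) ≤ H := by
  have hb : ∀ (l : Fin m) (a : Kˣ), iota l (CfsgLib.SL2.d a) ∈ (borelSp : Subgroup SpK) := by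
    intro l a x y hxy
    simp only [ent, coe_iota, CfsgLib.SL2.coe_d]
    rcases x with u | u <;> rcases y with v | v <;> simp [diagonal_apply]
    all_goals
      rintro rfl
      exact absurd hxy (lt_irrefl _)
  have hdiag : ∀ (g : SpK), g ∈ borelSp → ∀ x, ent g x x ≠ 0 := fun g hg x h => by
    have := diag_mul hg (borelSp.inv_mem hg) x
    rw [mul_inv_cancel, h, zero_mul] at this
    simp [ent] at this
  have hid : ∀ (l : Fin m) (a : Kˣ) (x : I2), ent (iota l (CfsgLib.SL2.d a) : SpK) x x =
      Sum.elim (fun i => if i = l then (a : K) else 1) (fun i => if i = l then ((a⁻¹ : Kˣ) : K) else 1) x := by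
    intro l a x
    rcases x with i | i <;> simp [ent, coe_iota]
  suffices ∀ (t : ℕ) (g : SpK), g ∈ borelSp →
      (∀ i : Fin m, t ≤ (i : ℕ) → ent g (Sum.inl i) (Sum.inl i) = 1) → g ∈ H by
    intro g hg
    exact this m g hg fun i hi => absurd i.2 (not_lt.2 hi)
  intro t
  induction t with
  | zero =>
    intro g hg h1
    refine hU (mem_uni_of_borel hg ?_)
    rintro (i | i)
    · exact h1 i (Nat.zero_le _)
    · have hm := congrFun (congrFun (SymplecticGroup.mem_iff'.1 g.2) (Sum.inr i)) (Sum.inl i)
      simp only [Matrix.mul_apply, Fintype.sum_sum_type, Matrix.transpose_apply] at hm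
      have h21 : ∀ a b : Fin m, (g : MatK) (Sum.inr a) (Sum.inl b) = 0 := fun a b =>
        hg (Sum.inr a) (Sum.inl b) (by simp; omega)
      simp [J, h21, Matrix.one_apply] at hm
      rw [Finset.sum_eq_single i] at hm
      · have := h1 i (Nat.zero_le _)
        simp only [ent] at this
        rw [this, mul_one] at hm
        exact hm
      · intro c _ hc
        rcases lt_or_gt_of_ne hc with h | h
        · have := hg (Sum.inr c) (Sum.inr i) (by
            have : (c : ℕ) < i := h
            simp; omega)
          simp only [ent] at this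
          rw [this, zero_mul]
        · have := hg (Sum.inl c) (Sum.inl i) (by simpa using h)
          simp only [ent] at this
          rw [this, mul_zero]
      · simp
  | succ t ih =>
    intro g hg h1
    by_cases ht : m ≤ t
    · exact ih g hg fun i hi => absurd i.2 (by omega)
    let i : Fin m := ⟨t, by omega⟩
    set a : Kˣ := Units.mk0 _ (hdiag g hg (Sum.inl i)) with ha
    have hmem : (iota i (CfsgLib.SL2.d a))⁻¹ * g ∈ H := by
      refine ih _ (borelSp.mul_mem (borelSp.inv_mem (hb i a)) hg) fun x hx => ?_
      rw [← map_inv, ← map_inv, diag_mul (hb i a⁻¹) hg, hid]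
      by_cases hxi : x = i
      · subst hxi; simp [ha]; exact inv_mul_cancel₀ (hdiag g hg _)
      · have : t + 1 ≤ (x : ℕ) := by
          have : (x : ℕ) ≠ t := fun e => hxi (Fin.ext e)
          omega
        simp [hxi, h1 x this]
    have := H.mul_mem (hd i a) hmem
    rwa [mul_inv_cancel_left] at this

theorem center_eq_one (p : ℕ) [Fact p.Prime] [CharP K p] {z : SpK}
    (hz : z ∈ Subgroup.center SpK) {k : ℕ} (hk : z ^ (p ^ k) = 1) : z = 1 := by
  rcases Nat.eq_zero_or_pos m with h0 | h0
  · subst h0
    exact Subtype.ext (Matrix.ext fun i => i.elim (fun j => j.elim0) (fun j => j.elim0))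
  rcases mem_center_iff.1 hz with h | h
  · exact Subtype.ext h
  have h1 := congrArg (fun g : SpK => (g : MatK) (Sum.inl ⟨0, h0⟩) (Sum.inl ⟨0, h0⟩)) hk
  simp only [SubmonoidClass.coe_pow, h] at h1
  have e : ((-1 : MatK) ^ (p ^ k)) = diagonal (fun _ => (-1 : K) ^ (p ^ k)) := by
    have : (-1 : MatK) = diagonal (fun _ => (-1 : K)) := by rw [← diagonal_one, diagonal_neg]
    rw [this, diagonal_pow]
    rfl
  rw [e] at h1
  simp at h1
  have h2 := eq_one_of_pow_prime p h1
  refine Subtype.ext ?_
  rw [h, Submonoid.coe_one]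
  rw [← diagonal_one, diagonal_neg, h2]

section Image

variable {G : Type*} [Group G] [Finite G] (p : ℕ) [Fact p.Prime] [CharP K p]
  (π : Matrix.symplecticGroup (Fin m) K →* G) (hπ : Function.Surjective π)
  (hker : π.ker ≤ Subgroup.center (Matrix.symplecticGroup (Fin m) K))

include hker in
theorem mem_uni_of_map {x u : SpK} (hu : u ∈ uni) {k : ℕ} (hx : x ^ (p ^ k) = 1) (h : π x = π u) :
    x ∈ uni := by
  have hz : x * u⁻¹ ∈ Subgroup.center SpK :=
    hker (by rw [MonoidHom.mem_ker, map_mul, map_inv, h, mul_inv_cancel])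
  have hcomm : Commute (x * u⁻¹) u := (Subgroup.mem_center_iff.1 hz u).symm
  have h1 : (x * u⁻¹) ^ (p ^ (k + 2 * m)) = 1 := by
    have e : x ^ (p ^ (k + 2 * m)) = (x * u⁻¹) ^ (p ^ (k + 2 * m)) * u ^ (p ^ (k + 2 * m)) := by
      rw [← hcomm.mul_pow, inv_mul_cancel_right]
    have hu1 : u ^ (p ^ (k + 2 * m)) = 1 := by
      rw [pow_add, mul_comm, pow_mul, pow_uni p hu, one_pow]
    rw [pow_add, pow_mul, hx, one_pow, ← pow_add, hu1, mul_one] at e
    exact e.symm
  have := center_eq_one p hz h1
  rw [mul_inv_eq_one] at this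
  exact this ▸ hu

include p hker in
theorem mem_borel_of_map_normalizer {h : SpK}
    (hh : π h ∈ Subgroup.normalizer (((uni : Subgroup SpK).map π : Subgroup G) : Set G)) : h ∈ borelSp := by
  refine mem_borel_of_normalizing fun u hu => ?_
  obtain ⟨u', hu', he⟩ := (Subgroup.mem_normalizer_iff''.1 hh (π u)).1 ⟨u, hu, rfl⟩
  refine mem_uni_of_map p π hker hu' (k := 2 * m) ?_ ?_
  · have e := conj_pow (a := h⁻¹) (b := u) (i := p ^ (2 * m))
    rw [inv_inv] at e
    rw [e, pow_uni p hu, mul_one, inv_mul_cancel]
  · rw [he, map_mul, map_mul, map_inv]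

theorem map_mem_normalizer {A : Subgroup SpK} {t : SpK} (h : ∀ a ∈ A, t * a * t⁻¹ ∈ A) :
    π t ∈ Subgroup.normalizer ((A.map π : Subgroup G) : Set G) := by
  refine Subgroup.mem_normalizer_fintype ?_
  rintro _ ⟨a, ha, rfl⟩
  exact ⟨t * a * t⁻¹, h a ha, by simp⟩

include hπ hker in
theorem rad_props (S : Sylow p G) (hS : (S : Subgroup G) = (uni : Subgroup SpK).map π) {f : I2 → ℕ}
    (hf : ∀ a b, pos b ≤ pos a → f b ≤ f a)
    (hcen : ∀ u ∈ (uni : Subgroup SpK), (∀ r ∈ (rad f : Subgroup SpK), u * r = r * u) → u ∈ rad f) :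
    (Cfsg.groupFusionSystem (S : Subgroup G)).IsFullyNormalized ((rad f).map π) ∧
      (Cfsg.groupFusionSystem (S : Subgroup G)).IsCentric ((rad f).map π) := by
  set R := (rad f).map π with hR
  have hRS : R ≤ (S : Subgroup G) := hS ▸ Subgroup.map_mono (rad_le_uni hf)
  have hSN : (S : Subgroup G) ≤ Subgroup.normalizer (R : Set G) := by
    rw [hS]
    rintro _ ⟨u, hu, rfl⟩
    exact map_mem_normalizer π fun r hr => par_conj (uni_le_par hf hu) hr
  have hfn : (Cfsg.groupFusionSystem (S : Subgroup G)).IsFullyNormalized R := by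
    refine ⟨hRS, fun Q _ => ?_⟩
    rw [show Cfsg.FusionSystem.normalizerIn (S : Subgroup G) R = (S : Subgroup G) from
      inf_eq_left.2 hSN]
    exact Subgroup.card_le_of_le inf_le_left
  refine ⟨hfn, isCentric_of_fullyCentralized
    (fullyCentralized_of_fullyNormalized S.isPGroup' (isSaturated_group S) hfn) ?_⟩
  rintro x ⟨hxS, hx⟩
  rw [hS] at hxS
  obtain ⟨u, hu, rfl⟩ := hxS
  refine ⟨u, hcen u hu fun r hr => ?_, rfl⟩
  have h := hx (π r) ⟨r, hr, rfl⟩
  have hz : u * r * u⁻¹ * r⁻¹ ∈ Subgroup.center SpK := hker (by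
    rw [MonoidHom.mem_ker, map_mul, map_mul, map_mul, map_inv, map_inv, ← h, mul_inv_cancel_right,
      mul_inv_cancel])
  have hr' := rad_le_uni hf hr
  have hm : u * r * u⁻¹ * r⁻¹ ∈ (uni : Subgroup SpK) := Subgroup.mul_mem _
    (Subgroup.mul_mem _ (Subgroup.mul_mem _ hu hr') (Subgroup.inv_mem _ hu)) (Subgroup.inv_mem _ hr')
  have h1 := center_eq_one p hz (pow_uni p hm)
  rwa [mul_inv_eq_one, mul_inv_eq_iff_eq_mul] at h1

end Image

/-- Symmetric matrices whose Siegel elements lie in a set closed under fusion generate everything. -/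
theorem sym_set_eq_univ (hm : 2 ≤ m) (hex : m = 2 → 3 ≤ Fintype.card K)
    (p : ℕ) [Fact p.Prime] [CharP K p]
    (M : Matrix (Fin m) (Fin m) K → Prop)
    (hadd : ∀ S T, M S → M T → M (S + T)) (hneg : ∀ S, M S → M (-S)) (hzero : M 0)
    (hcong : ∀ (g : GL (Fin m) K) S, M S → M ((g : Matrix (Fin m) (Fin m) K) * S * (g : Matrix (Fin m) (Fin m) K)ᵀ))
    (hlong : ∀ (k l : Fin m) (b : K), k ≠ l → M (symSingle k l b) → M (symSingle k k (b ^ 2) + symSingle k l b))
    (S₀ : Matrix (Fin m) (Fin m) K) (a b : K)
    (hS₀ : ∀ k l : Fin m, (k : ℕ) = 0 → (l : ℕ) = 1 → S₀ = symSingle k k a + symSingle k l b)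
    (hb : b ≠ 0 → (2 : K) = 0)
    (hne : a ≠ 0 ∨ b ≠ 0) (hM : M S₀) :
    ∀ k l c, M (symSingle k l c) := by
  classical
  set e0 : Fin m := ⟨0, by omega⟩ with he0
  set e1 : Fin m := ⟨1, by omega⟩ with he1
  have h01 : e0 ≠ e1 := by simp [e0, e1]
  rw [hS₀ e0 e1 rfl rfl] at hM
  have hsub : ∀ S T, M S → M T → M (S - T) := fun S T h h' => sub_eq_add_neg S T ▸ hadd _ _ h (hneg _ h')
  have congr_diag : ∀ (d : Fin m → Kˣ) (S : Matrix (Fin m) (Fin m) K), M S →
      M (Matrix.of fun i j => (d i : K) * S i j * (d j : K)) := by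
    intro d S h
    let g : GL (Fin m) K := ⟨diagonal fun i => (d i : K), diagonal fun i => ((d i)⁻¹ : Kˣ),
      by simp [diagonal_mul_diagonal], by simp [diagonal_mul_diagonal]⟩
    convert hcong g S h using 1
    ext i j
    show _ = (diagonal (fun i => (d i : K)) * S * (diagonal fun i => (d i : K))ᵀ) i j
    simp [diagonal_transpose, mul_diagonal, diagonal_mul]
  have congr_perm : ∀ (σ : Equiv.Perm (Fin m)) (S : Matrix (Fin m) (Fin m) K), M S → M (S.submatrix σ σ) := by
    intro σ S h
    let g : GL (Fin m) K := ⟨(1 : Matrix (Fin m) (Fin m) K).submatrix σ id,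
      (1 : Matrix (Fin m) (Fin m) K).submatrix id σ,
      by ext i j; simp [Matrix.mul_apply, Matrix.one_apply],
      by
        rw [Matrix.submatrix_mul_equiv]; simp⟩
    convert hcong g S h using 1
    ext i j
    show _ = ((1 : Matrix (Fin m) (Fin m) K).submatrix σ id * S * ((1 : Matrix (Fin m) (Fin m) K).submatrix σ id)ᵀ) i j
    simp [Matrix.mul_apply, Matrix.one_apply]
  -- a long root element
  obtain ⟨c₀, hc₀, hlongM⟩ : ∃ c₀ : K, c₀ ≠ 0 ∧ M (symSingle e0 e0 c₀) := by
    by_cases hb0 : b = 0
    · subst hb0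
      refine ⟨a, hne.resolve_right (by simp), ?_⟩
      have : symSingle e0 e1 (0 : K) = 0 := by ext i j; simp [symSingle]
      rwa [this, add_zero] at hM
    have h2 := hb hb0
    -- a short root element
    obtain ⟨b', hb', hshort⟩ : ∃ b' : K, b' ≠ 0 ∧ M (symSingle e0 e1 b') := by
      by_cases hq : ∃ t : Kˣ, (t : K) ≠ 1
      · obtain ⟨t, ht⟩ := hq
        refine ⟨b * ((t : K) - 1), mul_ne_zero hb0 (sub_ne_zero.2 ht), ?_⟩
        have h := hsub _ _ (congr_diag (fun i => if i = e1 then t else 1) _ hM) hM
        convert h using 1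
        ext i j
        simp only [symSingle, Matrix.sub_apply, Matrix.add_apply, of_apply]
        by_cases hi0 : i = e0 <;> by_cases hi1 : i = e1 <;> by_cases hj0 : j = e0 <;> by_cases hj1 : j = e1 <;>
          simp_all [Ne.symm h01] <;> ring
      · push Not at hq
        have hm3 : 3 ≤ m := by
          by_contra h3
          have hq' : ∀ x : K, x ≠ 0 → x = 1 := fun x hx => by simpa using hq (Units.mk0 x hx)
          have h4 := hex (by omega)
          have : Fintype.card K ≤ 2 := by
            rw [← Finset.card_univ]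
            refine le_trans (Finset.card_le_card (t := {0, 1}) fun x _ => ?_) Finset.card_le_two
            by_cases hx : x = 0 <;> simp [hx, hq']
          omega
        set e2 : Fin m := ⟨2, by omega⟩ with he2
        have h02 : e0 ≠ e2 := by simp [e0, e2]
        have h12 : e1 ≠ e2 := by simp [e1, e2]
        refine ⟨b, hb0, ?_⟩
        have h := hadd _ _ hM (congr_perm (Equiv.swap e1 e2) _ hM)
        let g : GL (Fin m) K := ⟨Matrix.transvection e2 e1 1, Matrix.transvection e2 e1 (-1),
          by rw [transvection_mul_transvection_same _ _ h12.symm, add_neg_cancel, transvection_zero],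
          by rw [transvection_mul_transvection_same _ _ h12.symm, neg_add_cancel, transvection_zero]⟩
        have e2' : ∀ x : K, x + x = 0 := fun x => by linear_combination x * h2
        have hsum : (symSingle e0 e0 a + symSingle e0 e1 b) +
            (symSingle e0 e0 a + symSingle e0 e1 b).submatrix (Equiv.swap e1 e2) (Equiv.swap e1 e2) =
            symSingle e0 e1 b + symSingle e0 e2 b := by
          ext i j
          simp only [symSingle, Matrix.add_apply, submatrix_apply, of_apply, Equiv.swap_apply_def]
          grind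
        rw [hsum] at h
        convert hcong g _ h using 1
        show _ = Matrix.transvection e2 e1 1 * _ * (Matrix.transvection e2 e1 1)ᵀ
        have hT : (Matrix.transvection e2 e1 (1 : K))ᵀ = Matrix.transvection e1 e2 1 := by
          simp [Matrix.transvection, Matrix.transpose_add, Matrix.transpose_single]
        rw [hT]
        ext i j
        by_cases hj : j = e2 <;> by_cases hi : i = e2
        all_goals
          simp only [hi, hj, mul_transvection_apply_same, transvection_mul_apply_same, ne_eq, not_false_eq_true,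
            mul_transvection_apply_of_ne, transvection_mul_apply_of_ne, one_mul]
          simp only [symSingle, Matrix.add_apply, of_apply]
          grind
    have h := hlong e0 e1 b' h01 hshort
    refine ⟨b' ^ 2, pow_ne_zero _ hb', ?_⟩
    have := hsub _ _ h hshort
    rwa [add_sub_cancel_right] at this
  have hdiag : ∀ (k : Fin m) (c : K), M (symSingle k k c) := by
    have hsq : ∀ t : K, M (symSingle e0 e0 (c₀ * t ^ 2)) := by
      intro t
      by_cases ht : t = 0
      · convert hzero using 1
        ext i j
        simp [symSingle, ht]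
      convert congr_diag (fun _ => Units.mk0 t ht) _ hlongM using 1
      ext i j
      simp only [symSingle, of_apply, Units.val_mk0]
      split_ifs <;> ring
    have hsum : ∀ c : K, M (symSingle e0 e0 c) := by
      intro c
      by_cases h2 : (2 : K) = 0
      · haveI : CharP K 2 := CharTwo.of_one_ne_zero_of_two_eq_zero one_ne_zero h2
        obtain ⟨t, ht⟩ := FiniteField.isSquare_of_char_two (by rw [ringChar.eq K 2]) (c / c₀)
        convert hsq t using 2
        rw [pow_two, ← ht, mul_div_cancel₀ _ hc₀]
      · have h := hsub _ _ (hsub _ _ (hsq (c / (2 * c₀) + 1)) (hsq (c / (2 * c₀)))) (hsq 1)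
        convert h using 1
        ext i j
        simp only [symSingle, Matrix.sub_apply, of_apply]
        split_ifs
        · field_simp
          ring
        · ring
    intro k c
    convert congr_perm (Equiv.swap e0 k) _ (hsum c) using 1
    ext i j
    simp [symSingle, Equiv.apply_eq_iff_eq_symm_apply]
  intro k l c
  by_cases hkl : k = l
  · subst hkl; exact hdiag k c
  let g : GL (Fin m) K := ⟨Matrix.transvection k l 1, Matrix.transvection k l (-1),
    by rw [transvection_mul_transvection_same _ _ hkl, add_neg_cancel, transvection_zero],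
    by rw [transvection_mul_transvection_same _ _ hkl, neg_add_cancel, transvection_zero]⟩
  have h := hsub _ _ (hsub _ _ (hcong g _ (hdiag l c)) (hdiag k c)) (hdiag l c)
  convert h using 1
  show _ = Matrix.transvection k l 1 * _ * (Matrix.transvection k l 1)ᵀ - _ - _
  have hT : (Matrix.transvection k l (1 : K))ᵀ = Matrix.transvection l k 1 := by
    simp [Matrix.transvection, Matrix.transpose_add, Matrix.transpose_single]
  rw [hT]
  ext i j
  rw [Matrix.sub_apply, Matrix.sub_apply]
  by_cases hj : j = k <;> by_cases hi : i = k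
  all_goals
    simp only [hi, hj, mul_transvection_apply_same, transvection_mul_apply_same, ne_eq, not_false_eq_true,
      mul_transvection_apply_of_ne, transvection_mul_apply_of_ne, one_mul]
    simp only [symSingle, of_apply]
    by_cases hi1 : i = l <;> by_cases hj1 : j = l <;> simp_all [Ne.symm hkl]

/-- The centre of the unitriangular group. -/
theorem center_uni (hm : 2 ≤ m) {u : SpK} (hu : u ∈ uni) (hc : ∀ x ∈ (uni : Subgroup SpK), u * x = x * u) :
    ∃ (S : Matrix (Fin m) (Fin m) K) (hS : S.IsSymm) (a b : K), u = symE S hS ∧ (b ≠ 0 → (2 : K) = 0) ∧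
      ∀ k l : Fin m, (k : ℕ) = 0 → (l : ℕ) = 1 → S = symSingle k k a + symSingle k l b := by
  classical
  set e0 : Fin m := ⟨0, by omega⟩ with he0
  set e1 : Fin m := ⟨1, by omega⟩ with he1
  have h := short_centric e0 e1 (by simp [e0, e1]) hu (fun r hr => hc r (rad_le_uni (shortF_mono e0 (by simp [e0]; omega)) hr))
  obtain ⟨A, S, hS, hA1, hA2, rfl⟩ := exists_levi_symE hu
  have hA : A = 1 := by
    refine Subtype.ext (Matrix.ext fun a k => ?_)
    have h := congrArg (fun g : SpK => ent g (Sum.inl a) (Sum.inr k))
      (hc _ (symE_mem_uni _ (isSymm_symSingle k k (1 : K))))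
    simp only [ent, Submonoid.coe_mul, coe_leviSL, coe_symE, fromBlocks_multiply,
      fromBlocks_apply₁₂] at h
    simp only [Matrix.mul_one, Matrix.one_mul, Matrix.mul_zero, Matrix.zero_mul, add_zero, zero_add] at h
    have e : ∀ M : Matrix (Fin m) (Fin m) K, ∀ x y, (M * symSingle k k (1 : K)) x y = if y = k then M x k else 0 := by
      intro M x y
      rw [Matrix.mul_apply]
      by_cases hy : y = k
      · subst hy; simp [symSingle]
      · simp [symSingle, hy]
    have e' : ∀ M : Matrix (Fin m) (Fin m) K, ∀ x y, (symSingle k k (1 : K) * M) x y = if x = k then M k y else 0 := by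
      intro M x y
      rw [Matrix.mul_apply]
      by_cases hx : x = k
      · subst hx; simp [symSingle]
      · simp [symSingle, hx]
    simp only [Matrix.add_apply, e, e', if_true, Matrix.transpose_apply] at h
    have hk := (CfsgLib.Fus.LinearSimple.uniSL.inv_mem (x := A) ⟨hA1, hA2⟩).2 k
    simp only [CfsgLib.Fus.LinearSimple.ent] at hk
    rw [hk] at h
    rw [Matrix.SpecialLinearGroup.coe_one, Matrix.one_apply]
    linear_combination h
  subst hA
  rw [map_one, one_mul] at hc ⊢
  have hB : ∀ (k l : Fin m) (hkl : k < l) (i j : Fin m),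
      S i j = ((Matrix.transvection k l (1 : K)) * S * (Matrix.transvection l k (1 : K))) i j := by
    intro k l hkl i j
    have e := levi_conj_symE (Matrix.SpecialLinearGroup.toGL (Matrix.SpecialLinearGroup.transvection hkl.ne (1 : K))) S hS
    have h1 := hc _ (transvection_mem_uni hkl (1 : K))
    rw [leviSL, MonoidHom.comp_apply] at h1
    rw [← h1, mul_inv_cancel_right] at e
    have e' := congrFun (congrFun (congrArg Subtype.val e) (Sum.inl i)) (Sum.inr j)
    simp only [coe_symE, fromBlocks_apply₁₂] at e'
    rw [e']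
    show (Matrix.transvection k l (1 : K) * S * (Matrix.transvection k l (1 : K))ᵀ) i j = _
    rw [show (Matrix.transvection k l (1 : K))ᵀ = Matrix.transvection l k 1 by
      simp [Matrix.transvection, Matrix.transpose_add, Matrix.transpose_single]]
  have hzero : ∀ (k l : Fin m), k < l → ∀ j, j ≠ k → S l j = 0 := by
    intro k l hkl j hj
    have h1 := hB k l hkl k j
    rw [mul_transvection_apply_of_ne _ _ _ _ hj, transvection_mul_apply_same] at h1
    linear_combination -h1
  have hkk : ∀ (k l : Fin m), k < l → 2 * S l k + S l l = 0 := by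
    intro k l hkl
    have h1 := hB k l hkl k k
    rw [mul_transvection_apply_same, transvection_mul_apply_same, transvection_mul_apply_same, hS.apply] at h1
    have := hS.apply k l
    linear_combination -h1 + this
  refine ⟨S, hS, S e0 e0, S e1 e0, rfl, fun hb => ?_, ?_⟩
  · have h1 := hkk e0 e1 (by show (0 : ℕ) < 1; norm_num)
    rw [hzero e0 e1 (by show (0 : ℕ) < 1; norm_num) e1 (by simp [e0, e1]), add_zero] at h1
    exact (mul_eq_zero.1 h1).resolve_right hb
  · intro k l hk hl
    obtain rfl : k = e0 := Fin.ext hk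
    obtain rfl : l = e1 := Fin.ext hl
    have hrow : ∀ i j : Fin m, 2 ≤ (i : ℕ) → S i j = 0 := by
      intro i j hi
      by_cases hj : j = e0
      · exact hj ▸ hzero e1 i (by show (1 : ℕ) < i; omega) e0 (by simp [e0, e1])
      · exact hzero e0 i (by show (0 : ℕ) < i; omega) j hj
    ext i j
    simp only [Matrix.add_apply, symSingle, of_apply]
    rcases Nat.lt_or_ge (i : ℕ) 2 with hi | hi
    · rcases Nat.lt_or_ge (j : ℕ) 2 with hj | hj
      · obtain rfl | rfl : i = e0 ∨ i = e1 := by
          rcases Nat.lt_or_ge (i : ℕ) 1 with h' | h'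
          · exact Or.inl (Fin.ext (show (i : ℕ) = 0 by omega))
          · exact Or.inr (Fin.ext (show (i : ℕ) = 1 by omega))
        all_goals
          obtain rfl | rfl : j = e0 ∨ j = e1 := by
            rcases Nat.lt_or_ge (j : ℕ) 1 with h' | h'
            · exact Or.inl (Fin.ext (show (j : ℕ) = 0 by omega))
            · exact Or.inr (Fin.ext (show (j : ℕ) = 1 by omega))
        · simp [e0, e1]
        · simpa [e0, e1] using hS.apply e1 e0
        · simp [e0, e1]
        · simpa [e0, e1] using hzero e0 e1 (by show (0 : ℕ) < 1; norm_num) e1 (by simp [e0, e1])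
      · rw [← hS.apply, hrow j i hj]
        simp [e0, e1, Fin.ext_iff]
        grind
    · rw [hrow i j hi]
      simp [e0, e1, Fin.ext_iff]
      grind

theorem transvection_congr_single {k l : Fin m} (hkl : k ≠ l) (c : K) :
    Matrix.transvection k l c * symSingle l l 1 * (Matrix.transvection k l c)ᵀ =
      symSingle k k (c ^ 2) + symSingle k l c + symSingle l l 1 := by
  have hT : (Matrix.transvection k l c)ᵀ = Matrix.transvection l k c := by
    simp [Matrix.transvection, Matrix.transpose_add, Matrix.transpose_single]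
  rw [hT]
  ext i j
  by_cases hj : j = k <;> by_cases hi : i = k
  all_goals
    simp only [hi, hj, mul_transvection_apply_same, transvection_mul_apply_same, ne_eq,
      not_false_eq_true, mul_transvection_apply_of_ne, transvection_mul_apply_of_ne]
    simp only [symSingle, Matrix.add_apply, of_apply]
    grind

section Main

variable {G : Type*} [Group G] [Finite G] (p : ℕ) [Fact p.Prime] [CharP K p]
  (π : Matrix.symplecticGroup (Fin m) K →* G) (hπ : Function.Surjective π)
  (hker : π.ker ≤ Subgroup.center (Matrix.symplecticGroup (Fin m) K))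

include hπ hker in
/-- The fusion system of a central quotient of `Sp_2m(K)` is simple. -/
theorem isSimple_image (hm : 2 ≤ m) (hex : m = 2 → 3 ≤ Fintype.card K) (S : Sylow p G)
    (hS : (S : Subgroup G) = (uni : Subgroup SpK).map π) :
    (Cfsg.groupFusionSystem (S : Subgroup G)).IsSimple p := by
  classical
  set F := Cfsg.groupFusionSystem (S : Subgroup G) with hF
  have hpx : ∀ u ∈ (uni : Subgroup SpK), π u = 1 → u = 1 := fun u hu h =>
    center_eq_one p (hker h) (pow_uni p hu)
  have hS1 : (S : Subgroup G) ≠ ⊥ := by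
    rw [hS]
    intro h
    set e0 : Fin m := ⟨0, by omega⟩
    have hmem : π (symE (symSingle e0 e0 (1 : K)) (isSymm_symSingle e0 e0 1)) ∈ (uni : Subgroup SpK).map π :=
      ⟨_, symE_mem_uni _ _, rfl⟩
    rw [h, Subgroup.mem_bot] at hmem
    have := congrArg (fun g : SpK => ent g (Sum.inl e0) (Sum.inr e0)) (hpx _ (symE_mem_uni _ _) hmem)
    simp [ent, coe_symE, symSingle] at this
  refine CfsgLib.Fus.NormalOverSylow.isSimple_of_generated S (isSaturated_group S) hS1 ?_ ?_
  · intro T hT
    by_cases hT1 : T = ⊥
    · exact Or.inl hT1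
    refine Or.inr (le_antisymm hT.1 ?_)
    have hclosed : ∀ (g x : G), x ∈ T → g * x * g⁻¹ ∈ (S : Subgroup G) → g * x * g⁻¹ ∈ T := by
      intro g x hx hgx
      have hmem : Cfsg.conjHom (Subgroup.zpowers x) g ∈ F.Hom (Subgroup.zpowers x) := by
        refine CfsgLib.Fus.NormalOverSylow.conjHom_mem_group ((Subgroup.zpowers_le.2 hx).trans hT.1) ?_
        rintro _ ⟨k, rfl⟩
        show g * x ^ k * g⁻¹ ∈ (S : Subgroup G)
        rw [← conj_zpow]
        exact Subgroup.zpow_mem _ hgx k
      exact hT.2 _ (Subgroup.zpowers_le.2 hx) _ hmem ⟨x, Subgroup.mem_zpowers x⟩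
    have hmove : ∀ (g x y : SpK), π x ∈ T → g * x * g⁻¹ = y → y ∈ (uni : Subgroup SpK) → π y ∈ T := by
      intro g x y hx he hy
      have := hclosed (π g) (π x) hx (by
        rw [← map_inv, ← map_mul, ← map_mul, he, hS]; exact ⟨y, hy, rfl⟩)
      rwa [← map_inv, ← map_mul, ← map_mul, he] at this
    set T' := T.subgroupOf (S : Subgroup G) with hT'
    haveI : T'.Normal := ⟨fun a ha s =>
      hclosed s a ha (S.mul_mem (S.mul_mem s.2 a.2) (S.inv_mem s.2))⟩
    have hT'1 : Nontrivial T' := (Subgroup.nontrivial_iff_ne_bot _).2 fun h => hT1 (by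
      rw [hT', Subgroup.subgroupOf_eq_bot, disjoint_iff, inf_eq_left.2 hT.1] at h
      exact h)
    obtain ⟨x, hxT, hx1, hxc⟩ : ∃ x, x ∈ T ∧ x ≠ 1 ∧ ∀ s ∈ (S : Subgroup G), s * x = x * s := by
      have hZ : IsPGroup p (S : Subgroup G) := S.isPGroup'
      have hTp : IsPGroup p T' := S.isPGroup'.to_subgroup T'
      obtain ⟨k, hk⟩ := hTp.exists_card_eq
      have hdvd : p ∣ Nat.card T' := by
        rcases Nat.eq_zero_or_pos k with h0 | h0
        · rw [h0, pow_zero] at hk
          exact absurd hk (Finite.one_lt_card (α := T')).ne'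
        · exact hk ▸ dvd_pow_self p h0.ne'
      letI : MulAction (S : Subgroup G) T' := MulAction.compHom _
        (MulAut.conjNormal : (S : Subgroup G) →* MulAut T')
      obtain ⟨b, hb, hb1⟩ := hZ.exists_fixed_point_of_prime_dvd_card_of_fixed_point T' hdvd (a := 1)
        (fun s => map_one (MulAut.conjNormal s : MulAut T'))
      refine ⟨((b : (S : Subgroup G)) : G), b.2, fun h => hb1 (Subtype.ext (Subtype.ext h.symm)),
        fun s hs => ?_⟩
      have h2 := congrArg (fun t : T' => (((t : (S : Subgroup G))) : G)) (hb ⟨s, hs⟩)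
      exact mul_inv_eq_iff_eq_mul.1 h2
    obtain ⟨u, hu, rfl⟩ : x ∈ (uni : Subgroup SpK).map π := hS ▸ hT.1 hxT
    have huc : ∀ y ∈ (uni : Subgroup SpK), u * y = y * u := by
      intro y hy
      have h := hxc (π y) (hS ▸ ⟨y, hy, rfl⟩)
      have h1 : π (u * y * u⁻¹ * y⁻¹) = 1 := by
        rw [map_mul, map_mul, map_mul, map_inv, map_inv, ← h, mul_inv_cancel_right, mul_inv_cancel]
      have h2 := hpx _ (Subgroup.mul_mem _ (Subgroup.mul_mem _ (Subgroup.mul_mem _ hu hy)
        (Subgroup.inv_mem _ hu)) (Subgroup.inv_mem _ hy)) h1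
      rwa [mul_inv_eq_one, mul_inv_eq_iff_eq_mul] at h2
    obtain ⟨S₀, hS₀, a, b, rfl, hb, hshape⟩ := center_uni hm hu huc
    set M : Matrix (Fin m) (Fin m) K → Prop := fun A => ∃ hA : A.IsSymm, π (symE A hA) ∈ T with hMdef
    have hall : ∀ k l c, M (symSingle k l c) := by
      refine sym_set_eq_univ hm hex p M ?_ ?_ ?_ ?_ ?_ S₀ a b hshape hb ?_ ⟨hS₀, hxT⟩
      · rintro A B ⟨hA, hA'⟩ ⟨hB, hB'⟩
        exact ⟨hA.add hB, by rw [← symE_mul hA hB, map_mul]; exact T.mul_mem hA' hB'⟩
      · rintro A ⟨hA, hA'⟩
        refine ⟨hA.neg, ?_⟩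
        have : symE (-A) hA.neg = (symE A hA)⁻¹ := by
          rw [eq_inv_iff_mul_eq_one, symE_mul]
          exact Subtype.ext (by rw [coe_symE, neg_add_cancel, fromBlocks_one]; rfl)
        rw [this, map_inv]
        exact T.inv_mem hA'
      · refine ⟨Matrix.isSymm_zero, ?_⟩
        have : symE (0 : Matrix (Fin m) (Fin m) K) Matrix.isSymm_zero = 1 :=
          Subtype.ext (by rw [coe_symE, fromBlocks_one]; rfl)
        rw [this, map_one]
        exact T.one_mem
      · rintro g A ⟨hA, hA'⟩
        exact ⟨isSymm_congr _ A hA, hmove (levi g) _ _ hA' (levi_conj_symE g A hA) (symE_mem_uni _ _)⟩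
      · rintro k l c hkl ⟨hA, hA'⟩
        -- conjugate to a Levi transvection, then take a commutator with a long root element
        rcases lt_or_gt_of_ne hkl with hlt | hlt
        · have ht : π (tr[hkl, c]) ∈ T :=
            hmove (iota l CfsgLib.SL2.w) _ _ hA' (iota_w_conj k l hkl c) (transvection_mem_uni hlt c)
          set y := symE (symSingle l l (1 : K)) (isSymm_symSingle l l 1) with hy
          set t := tr[hkl, c] with htd
          have htU : t ∈ (uni : Subgroup SpK) := transvection_mem_uni hlt c
          have hyU : y ∈ (uni : Subgroup SpK) := symE_mem_uni _ _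
          have h1 : π (y * t⁻¹ * y⁻¹) ∈ T := hmove y t⁻¹ _ (by rw [map_inv]; exact T.inv_mem ht) rfl
            (uni.mul_mem (uni.mul_mem hyU (uni.inv_mem htU)) (uni.inv_mem hyU))
          have h2 : π (t * (y * t⁻¹ * y⁻¹)) ∈ T := by rw [map_mul]; exact T.mul_mem ht h1
          have he : t * (y * t⁻¹ * y⁻¹) =
              symE _ ((isSymm_symSingle k k (c ^ 2)).add (isSymm_symSingle k l c)) := by
            have e := levi_conj_symE (Matrix.SpecialLinearGroup.toGL
              (Matrix.SpecialLinearGroup.transvection hkl c)) _ (isSymm_symSingle l l (1 : K))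
            change t * y * t⁻¹ = _ at e
            rw [← mul_assoc, ← mul_assoc, e, mul_inv_eq_iff_eq_mul, hy, symE_mul]
            congr 1
            exact transvection_congr_single hkl c
          exact ⟨_, he ▸ h2⟩
        · -- move to increasing indices by a transposition
          let g : GL (Fin m) K := ⟨(1 : Matrix (Fin m) (Fin m) K).submatrix (Equiv.swap k l) id,
            (1 : Matrix (Fin m) (Fin m) K).submatrix (Equiv.swap k l) id,
            by
              ext i j
              rw [Matrix.mul_apply, Finset.sum_eq_single (Equiv.swap k l i)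
                (fun c _ hc => by simp [Matrix.one_apply, Ne.symm hc]) (by simp)]
              simp [Matrix.one_apply],
            by
              ext i j
              rw [Matrix.mul_apply, Finset.sum_eq_single (Equiv.swap k l i)
                (fun c _ hc => by simp [Matrix.one_apply, Ne.symm hc]) (by simp)]
              simp [Matrix.one_apply]⟩
          have hswap : ∀ A : Matrix (Fin m) (Fin m) K, (g : Matrix (Fin m) (Fin m) K) * A *
              (g : Matrix (Fin m) (Fin m) K)ᵀ = A.submatrix (Equiv.swap k l) (Equiv.swap k l) := by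
            intro A
            ext i j
            show ((1 : Matrix (Fin m) (Fin m) K).submatrix (Equiv.swap k l) id * A *
              ((1 : Matrix (Fin m) (Fin m) K).submatrix (Equiv.swap k l) id)ᵀ) i j = _
            simp [Matrix.mul_apply, Matrix.one_apply]
          have hs : symSingle l k c = symSingle k l c := by
            ext i j; simp [symSingle, and_comm, or_comm]
          have ht : π (tr[hlt.ne, c]) ∈ T := by
            refine hmove (iota k CfsgLib.SL2.w) _ _ ?_ (iota_w_conj l k hlt.ne c) (transvection_mem_uni hlt c)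
            convert hA' using 3
          set y := symE (symSingle k k (1 : K)) (isSymm_symSingle k k 1) with hy
          set t := tr[hlt.ne, c] with htd
          have htU : t ∈ (uni : Subgroup SpK) := transvection_mem_uni hlt c
          have hyU : y ∈ (uni : Subgroup SpK) := symE_mem_uni _ _
          have h1 : π (y * t⁻¹ * y⁻¹) ∈ T := hmove y t⁻¹ _ (by rw [map_inv]; exact T.inv_mem ht) rfl
            (uni.mul_mem (uni.mul_mem hyU (uni.inv_mem htU)) (uni.inv_mem hyU))
          have h2 : π (t * (y * t⁻¹ * y⁻¹)) ∈ T := by rw [map_mul]; exact T.mul_mem ht h1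
          have he : t * (y * t⁻¹ * y⁻¹) =
              symE _ ((isSymm_symSingle l l (c ^ 2)).add (isSymm_symSingle l k c)) := by
            have e := levi_conj_symE (Matrix.SpecialLinearGroup.toGL
              (Matrix.SpecialLinearGroup.transvection hlt.ne c)) _ (isSymm_symSingle k k (1 : K))
            change t * y * t⁻¹ = _ at e
            rw [← mul_assoc, ← mul_assoc, e, mul_inv_eq_iff_eq_mul, hy, symE_mul]
            congr 1
            exact transvection_congr_single hlt.ne c
          have h3 : π (symE _ (isSymm_congr (g : Matrix (Fin m) (Fin m) K) _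
              ((isSymm_symSingle l l (c ^ 2)).add (isSymm_symSingle l k c)))) ∈ T :=
            hmove (levi g) _ _ (he ▸ h2) (levi_conj_symE g _ _) (symE_mem_uni _ _)
          have e3 : (g : Matrix (Fin m) (Fin m) K) * (symSingle l l (c ^ 2) + symSingle l k c) *
              (g : Matrix (Fin m) (Fin m) K)ᵀ = symSingle k k (c ^ 2) + symSingle k l c := by
            rw [hswap]
            ext i j
            simp [symSingle, Equiv.apply_eq_iff_eq_symm_apply]
          exact ⟨(isSymm_symSingle k k (c ^ 2)).add (isSymm_symSingle k l c), by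
            convert h3 using 3
            exact e3.symm⟩
      · by_contra hne
        push Not at hne
        refine hx1 ?_
        have : S₀ = 0 := by
          rw [hshape ⟨0, by omega⟩ ⟨1, by omega⟩ rfl rfl, hne.1, hne.2]
          ext i j
          simp [symSingle]
        subst this
        have : symE (0 : Matrix (Fin m) (Fin m) K) hS₀ = 1 :=
          Subtype.ext (by rw [coe_symE, fromBlocks_one]; rfl)
        rw [this, map_one]
    rw [hS]
    refine Subgroup.map_le_iff_le_comap.2 (uni_le (fun k l hkl c => ?_) fun k l c => ?_)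
    · obtain ⟨_, h⟩ := hall k l c
      exact hmove (iota l CfsgLib.SL2.w) _ _ h (iota_w_conj k l hkl.ne c) (transvection_mem_uni hkl c)
    · obtain ⟨_, h⟩ := hall k l c
      exact h
  · set Sup := ⨆ (R : Subgroup G)
      (_ : F.IsFullyNormalized R ∧ F.IsCentric R),
      Cfsg.autInducedBy (Subgroup.closure
        {g : G | g ∈ Subgroup.normalizer (R : Set G) ∧ ∃ k : ℕ, orderOf g = p ^ k})
        (S : Subgroup G) with hSup
    let J : Subgroup SpK :=
      ((Sup.comap (S : Subgroup G).normalizerMonoidHom).map
        (Subgroup.normalizer ((S : Subgroup G) : Set G)).subtype).comap π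
    have hJ : ∀ (R : Subgroup G), F.IsFullyNormalized R ∧ F.IsCentric R → ∀ g : SpK,
        π g ∈ Subgroup.normalizer ((S : Subgroup G) : Set G) →
        π g ∈ Subgroup.closure
          {g : G | g ∈ Subgroup.normalizer (R : Set G) ∧ ∃ k : ℕ, orderOf g = p ^ k} → g ∈ J := by
      intro R hR g hgS hg
      refine ⟨⟨π g, hgS⟩, ?_, rfl⟩
      exact (le_iSup₂_of_le (f := fun (R : Subgroup G) (_ : F.IsFullyNormalized R ∧ F.IsCentric R) =>
        Cfsg.autInducedBy (Subgroup.closure
          {g : G | g ∈ Subgroup.normalizer (R : Set G) ∧ ∃ k : ℕ, orderOf g = p ^ k})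
          (S : Subgroup G)) R hR le_rfl) (conjAut_mem_autInducedBy hgS hg)
    have hord : ∀ (x : SpK) (n : ℕ), x ^ (p ^ n) = 1 → ∃ k, orderOf (π x) = p ^ k := fun x n hx =>
      ((Nat.dvd_prime_pow (Fact.out : p.Prime)).1 (orderOf_dvd_of_pow_eq_one
        (show (π x) ^ (p ^ n) = 1 by rw [← map_pow, hx, map_one]))).imp fun _ h => h.2
    have hU : (uni : Subgroup SpK) ≤ J := by
      intro u hu
      have huS : π u ∈ (S : Subgroup G) := hS ▸ ⟨u, hu, rfl⟩
      exact hJ _ ⟨isFullyNormalized_top F, isCentric_top F⟩ u (Subgroup.le_normalizer huS)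
        (Subgroup.subset_closure ⟨Subgroup.le_normalizer huS, hord u _ (pow_uni p hu)⟩)
    have hnorm : ∀ g ∈ (borelSp : Subgroup SpK), π g ∈ Subgroup.normalizer ((S : Subgroup G) : Set G) := by
      intro g hg
      rw [hS]
      exact map_mem_normalizer π fun u hu => par_conj hg hu
    have hshort : ∀ (i j : Fin m) (hne : i ≠ j), (j : ℕ) = i + 1 → ∀ (a : K) (ha : a ≠ 0),
        leviSL (Matrix.SpecialLinearGroup.diag2n hne a ha) ∈ J := by
      intro i j hne hij a ha
      have hilt : i < j := by show (i : ℕ) < j; omega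
      have hmono := shortF_mono i (show (i : ℕ) + 1 < m by omega)
      set C := Subgroup.closure
        {g : G | g ∈ Subgroup.normalizer (((rad (shortF i) : Subgroup SpK).map π : Subgroup G) : Set G) ∧
          ∃ k : ℕ, orderOf g = p ^ k}
      have hpow : ∀ (k l : Fin m) (hkl : k ≠ l) (b : K), (tr[hkl, b] : SpK) ^ (p ^ 1) = 1 := by
        intro k l hkl b
        rw [← map_pow]
        have hp' : ∀ n : ℕ, (Matrix.SpecialLinearGroup.transvection hkl b) ^ n =
            Matrix.SpecialLinearGroup.transvection hkl ((n : K) * b) := by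
          intro n
          induction n with
          | zero => simp [Matrix.SpecialLinearGroup.transvection_coeff_zero]
          | succ n ih =>
            rw [pow_succ, ih, ← Matrix.SpecialLinearGroup.transvection_add, Nat.cast_succ, add_mul, one_mul]
        rw [hp', pow_one, CharP.cast_eq_zero, zero_mul, Matrix.SpecialLinearGroup.transvection_coeff_zero,
          map_one]
      have hpos : ∀ b : K, π (tr[hne, b]) ∈ C := fun b =>
        Subgroup.subset_closure ⟨map_mem_normalizer π fun r hr =>
          par_conj (uni_le_par hmono (transvection_mem_uni hilt b)) hr, hord _ 1 (hpow _ _ _ _)⟩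
      have hneg : ∀ b : K, π (tr[hne.symm, b]) ∈ C := fun b =>
        Subgroup.subset_closure ⟨map_mem_normalizer π fun r hr =>
          par_conj (tr_mem_par_short i j hij hne.symm b) hr, hord _ 1 (hpow _ _ _ _)⟩
      refine hJ _ (rad_props p π hπ hker S hS hmono fun u hu hc => short_centric i j hij hu hc) _ ?_ ?_
      · refine hnorm _ fun x y hxy => ?_
        have hinv : ((Matrix.SpecialLinearGroup.diag2n hne a ha)⁻¹ : Matrix.SpecialLinearGroup (Fin m) K) =
            Matrix.SpecialLinearGroup.diag2n hne a⁻¹ (inv_ne_zero ha) := by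
          rw [inv_eq_iff_mul_eq_one]
          refine Subtype.ext ?_
          rw [Matrix.SpecialLinearGroup.coe_mul, Matrix.SpecialLinearGroup.diag2n_coe,
            Matrix.SpecialLinearGroup.diag2n_coe, diagonal_mul_diagonal, Matrix.SpecialLinearGroup.coe_one,
            ← diagonal_one]
          congr 1
          funext z
          split_ifs <;> simp [ha]
        simp only [ent, coe_leviSL, hinv, Matrix.SpecialLinearGroup.diag2n_coe, diagonal_transpose]
        rcases x with u | u <;> rcases y with v | v <;> simp [diagonal_apply]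
        all_goals
          rintro rfl
          exact absurd hxy (lt_irrefl _)
      · rw [CfsgLib.Classical.Linear.diag2n_decompose hne a ha]
        simp only [map_mul]
        exact mul_mem (mul_mem (mul_mem (mul_mem (mul_mem (hpos _) (hneg _)) (hpos _)) (hpos _))
          (hneg _)) (hpos _)
    have hlong : ∀ (l : Fin m), (l : ℕ) + 1 = m → ∀ a : Kˣ, iota l (CfsgLib.SL2.d a) ∈ J := by
      intro l hl a
      set C := Subgroup.closure
        {g : G | g ∈ Subgroup.normalizer (((rad longF : Subgroup SpK).map π : Subgroup G) : Set G) ∧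
          ∃ k : ℕ, orderOf g = p ^ k}
      have hup : ∀ b : K, iota l (CfsgLib.SL2.u b) ∈ (uni : Subgroup SpK) := fun b => by
        rw [iota_u]; exact symE_mem_uni _ _
      have hpos : ∀ b : K, π (iota l (CfsgLib.SL2.u b)) ∈ C := fun b =>
        Subgroup.subset_closure ⟨map_mem_normalizer π fun r hr =>
          par_conj (uni_le_par longF_mono (hup b)) hr, hord _ _ (pow_uni p (hup b))⟩
      have hlp : ∀ b : K, (CfsgLib.SL2.l b) ^ (p ^ 1) = 1 := by
        intro b
        have : ∀ n : ℕ, CfsgLib.SL2.l b ^ n = CfsgLib.SL2.l ((n : K) * b) := by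
          intro n
          induction n with
          | zero => simp
          | succ n ih => rw [pow_succ, ih, ← CfsgLib.SL2.l_add, Nat.cast_succ, add_mul, one_mul]
        rw [this, pow_one, CharP.cast_eq_zero, zero_mul, CfsgLib.SL2.l_zero]
      have hneg : ∀ b : K, π (iota l (CfsgLib.SL2.l b)) ∈ C := fun b =>
        Subgroup.subset_closure ⟨map_mem_normalizer π fun r hr =>
          par_conj (low_mem_par_long l hl b) hr,
          hord _ 1 (by rw [← map_pow, hlp, map_one])⟩
      refine hJ _ (rad_props p π hπ hker S hS longF_mono fun u hu hc =>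
        long_centric ⟨m - 2, by omega⟩ l hl (by simp; omega) hu hc) _ ?_ ?_
      · refine hnorm _ fun x y hxy => ?_
        simp only [ent, coe_iota, CfsgLib.SL2.coe_d]
        rcases x with u | u <;> rcases y with v | v <;> simp [diagonal_apply]
        all_goals
          rintro rfl
          exact absurd hxy (lt_irrefl _)
      · have hw : π (iota l (CfsgLib.SL2.w : Matrix.SpecialLinearGroup (Fin 2) K)) ∈ C := by
          rw [CfsgLib.SL2.w_eq, map_mul, map_mul, map_mul, map_mul]
          exact mul_mem (mul_mem (hpos _) (hneg _)) (hpos _)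
        rw [CfsgLib.SL2.d_eq, map_mul, map_mul, map_mul, map_inv, map_mul, map_mul, map_mul, map_inv]
        exact mul_mem (mul_mem (mul_mem (hpos _) (hneg _)) (hpos _)) (inv_mem hw)
    have hB : (borelSp : Subgroup SpK) ≤ J := borel_le hU (levi_diag_mem hshort hlong)
    intro α hα
    obtain ⟨g, -, hg⟩ := mem_autInducedBy_iff.1 hα
    have hgS := mem_normalizer_of_aut hg
    obtain ⟨h, rfl⟩ := hπ g
    obtain ⟨⟨g', hg'⟩, hg'Sup, hgg'⟩ := hB (mem_borel_of_map_normalizer p π hker (hS ▸ hgS))
    have e : α = (S : Subgroup G).normalizerMonoidHom ⟨g', hg'⟩ := by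
      refine MulEquiv.ext fun x => Subtype.ext ?_
      rw [hg x]
      have hgg'' : g' = π h := hgg'
      subst hgg''
      rfl
    rw [e]
    exact hg'Sup

end Main

end CfsgLib.Classical.Symp.FusionSimple
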